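import Mathlib
import Cfsg.Prelude.Def_ClassicalGeometry
import Cfsg.Agent.H177.InvolForms
import Cfsg.Agent.S0287

/-!
# Pointwise stabilisers of subspaces in `isometryGroup F Q`

* `card_eq_of_fibres`: counting a group by the fibres of a map;
* `fixing Q M`: the isometries fixing every vector of `M`;
* `card_fixing_step`: orbit counting by Witt's lemma;
* `card_fixing_singular`: the order of `fixing` of a totally singular subspace of the plus-type form;
* `card_fixing_nonsingular`: the same for a totally isotropic, not totally singular subspace in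
  characteristic two.
-/

set_option autoImplicit false
set_option linter.unusedSectionVars false

namespace Cfsg.Agent.H196

open QuadraticMap Matrix Module
open Cfsg.Agent.ClassicalGeometry.Reflection
open Cfsg.Agent.ClassicalGeometry.OrthCharTwo
open Cfsg.Agent.H177.InvolGroup
open Cfsg.Agent.LieClassical.OrthForms

/-- Counting a group by the fibres of a map. -/
theorem card_eq_of_fibres {G X : Type*} [Group G] (K : Subgroup G) (f : G → X)
    (hf : Function.Surjective f) (h : ∀ a b, f a = f b ↔ a⁻¹ * b ∈ K) :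
    Nat.card G = Nat.card X * Nat.card K := by
  rw [Subgroup.card_eq_card_quotient_mul_card_subgroup K]
  congr 1
  refine Nat.card_eq_of_bijective (Quotient.lift f fun a b hab => (h a b).2
    (QuotientGroup.leftRel_apply.1 hab)) ⟨?_, ?_⟩
  · intro a b
    refine Quotient.inductionOn₂ a b fun a b hab => ?_
    exact Quotient.sound (QuotientGroup.leftRel_apply.2 ((h a b).1 hab))
  · intro x
    obtain ⟨a, rfl⟩ := hf x
    exact ⟨Quotient.mk _ a, rfl⟩

variable {ι : Type} [Fintype ι] [DecidableEq ι] {F : Type*} [Field F]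

/-- The isometries fixing every vector of `M`. -/
def fixing (Q : (ι → F) → F) (M : Submodule F (ι → F)) : Subgroup (Cfsg.isometryGroup F Q) where
  carrier := {g | ∀ x ∈ M, act g x = x}
  mul_mem' {a b} ha hb := fun x hx => by rw [act_mul, hb x hx, ha x hx]
  one_mem' := fun x _ => act_one x
  inv_mem' {a} ha := fun x hx => by
    conv_lhs => rw [← ha x hx]
    exact act_inv_act a x

theorem mem_fixing {Q : (ι → F) → F} {M : Submodule F (ι → F)} {g : Cfsg.isometryGroup F Q} :
    g ∈ fixing Q M ↔ ∀ x ∈ M, act g x = x := Iff.rfl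

theorem fixing_bot (Q : (ι → F) → F) : fixing Q (⊥ : Submodule F (ι → F)) = ⊤ := by
  rw [eq_top_iff]
  intro g _ x hx
  rw [(Submodule.mem_bot F).1 hx, act_zero]

/-- Orbit counting. -/
theorem card_fixing_step (Q : QuadraticForm F (ι → F)) (hQ : (polarBilin Q).Nondegenerate)
    (M : Submodule F (ι → F)) (u : ι → F) (hu : u ∉ M) :
    Nat.card (fixing (⇑Q) M)
      = Nat.card {w : ι → F // w ∉ M ∧ Q w = Q u ∧ ∀ x ∈ M, polar Q x w = polar Q x u}
        * Nat.card (fixing (⇑Q) (M ⊔ Submodule.span F {u})) := by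
  have hle : fixing (⇑Q) (M ⊔ Submodule.span F {u}) ≤ fixing (⇑Q) M :=
    fun g hg x hx => hg x (Submodule.mem_sup_left hx)
  have h1 : Nat.card (fixing (⇑Q) (M ⊔ Submodule.span F {u}))
      = Nat.card ((fixing (⇑Q) (M ⊔ Submodule.span F {u})).subgroupOf (fixing (⇑Q) M)) :=
    (Nat.card_congr (Subgroup.subgroupOfEquivOfLe hle).toEquiv).symm
  rw [h1]
  have hout : ∀ g : fixing (⇑Q) M, act (g : Cfsg.isometryGroup F (⇑Q)) u ∉ M := by
    intro g hg
    apply hu
    have h2 := g.2 _ hg
    have h3 := congrArg (act (g : Cfsg.isometryGroup F (⇑Q))⁻¹) h2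
    rw [act_inv_act, act_inv_act] at h3
    rwa [h3] at hg
  refine card_eq_of_fibres _ (fun g => ⟨act (g : Cfsg.isometryGroup F (⇑Q)) u, hout g,
    Q_act (Q := ⇑Q) _ _, fun x hx => by
      conv_lhs => rw [← g.2 x hx]
      exact polar_act (Q := ⇑Q) _ _ _⟩) ?_ ?_
  · rintro ⟨w, hw, hw1, hw2⟩
    obtain ⟨e, he, heM, heu⟩ := Cfsg.Agent.ClassicalGeometry.WittQuad.step Q hQ M u w hu hw hw1.symm
      (fun h hh => by
        have := hw2 h hh
        rw [polar_comm, polar_comm (⇑Q) h u] at this
        exact this.symm)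
    obtain ⟨g, hg⟩ := exists_iso (⇑Q) e he
    refine ⟨⟨g, fun x hx => by rw [hg, heM x hx]⟩, ?_⟩
    apply Subtype.ext
    exact (hg u).trans heu
  · intro a b
    rw [Subtype.mk.injEq, Subgroup.mem_subgroupOf, mem_fixing]
    constructor
    · intro hab x hx
      obtain ⟨y, hy, z, hz, rfl⟩ := Submodule.mem_sup.1 hx
      obtain ⟨c, rfl⟩ := Submodule.mem_span_singleton.1 hz
      rw [act_add, act_smul]
      have h4 : act ((a⁻¹ * b : fixing (⇑Q) M) : Cfsg.isometryGroup F (⇑Q)) u = u := by
        rw [Subgroup.coe_mul, act_mul, ← hab, ← act_mul, ← Subgroup.coe_mul, inv_mul_cancel]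
        exact act_one u
      rw [h4, (a⁻¹ * b).2 y hy]
    · intro h
      have h4 := h u (Submodule.mem_sup_right (Submodule.mem_span_singleton_self u))
      have h5 := congrArg (act (a : Cfsg.isometryGroup F (⇑Q))) h4
      rw [← act_mul, ← Subgroup.coe_mul, mul_inv_cancel_left] at h5
      exact h5.symm

/-- conjugate subspaces have pointwise stabilisers of the same order -/
theorem card_fixing_map (Q : (ι → F) → F) (g : Cfsg.isometryGroup F Q)
    (M : Submodule F (ι → F)) :
    Nat.card (fixing Q (M.map (actEquiv g : (ι → F) →ₗ[F] (ι → F)))) = Nat.card (fixing Q M) := by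
  refine Nat.card_congr
    { toFun := fun h => ⟨g⁻¹ * h * g, fun x hx => ?_⟩
      invFun := fun h => ⟨g * h * g⁻¹, fun x hx => ?_⟩
      left_inv := fun h => Subtype.ext (by simp [mul_assoc])
      right_inv := fun h => Subtype.ext (by simp [mul_assoc]) }
  · have h1 : act (h : Cfsg.isometryGroup F Q) (act g x) = act g x :=
      h.2 _ (Submodule.mem_map_of_mem hx)
    rw [act_mul, act_mul, h1]
    exact act_inv_act g x
  · obtain ⟨y, hy, rfl⟩ := hx
    rw [LinearEquiv.coe_coe, actEquiv_apply, act_mul, act_mul, act_inv_act, h.2 y hy]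

end Cfsg.Agent.H196
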