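import Mathlib
import Cfsg.Agent.H196.Fixing
import Cfsg.Agent.ClassicalGeometry.OrthDickson

/-!
# Centralisers of involutions of `isometryGroup F Q` in characteristic two

`card_centralizer`: the centraliser of `1 + N` is (isometries of the form `γ` on the range of `N`)
times the pointwise stabiliser of the range of `N`.
-/

set_option autoImplicit false
set_option linter.unusedSectionVars false

namespace Cfsg.Agent.H196

open QuadraticMap Matrix Module
open Cfsg.Agent.ClassicalGeometry.Reflection
open Cfsg.Agent.ClassicalGeometry.OrthCharTwo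
open Cfsg.Agent.H177.InvolGroup

variable {ι : Type} [Fintype ι] [DecidableEq ι] {F : Type*} [Field F]
variable (Q : QuadraticForm F (ι → F))

theorem commute_iff (g h : Cfsg.isometryGroup F (⇑Q)) :
    h * g = g * h ↔ ∀ x, act h (nMap g x) = nMap g (act h x) := by
  constructor
  · intro hc x
    rw [nMap_apply, nMap_apply, act_sub, ← act_mul, ← act_mul, hc]
  · intro H
    apply act_ext
    intro x
    have h1 := H x
    rw [nMap_apply, nMap_apply, act_sub, sub_left_inj, ← act_mul, ← act_mul] at h1
    exact h1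

theorem map_range_of_commute (g h : Cfsg.isometryGroup F (⇑Q)) (hc : h * g = g * h) :
    (LinearMap.range (nMap g)).map (actEquiv h : (ι → F) →ₗ[F] (ι → F))
      = LinearMap.range (nMap g) := by
  have h1 := (commute_iff Q g h).1 hc
  ext y
  rw [Submodule.mem_map]
  constructor
  · rintro ⟨_, ⟨x, rfl⟩, rfl⟩
    rw [LinearEquiv.coe_coe, actEquiv_apply, h1]
    exact ⟨_, rfl⟩
  · rintro ⟨x, rfl⟩
    refine ⟨nMap g (act h⁻¹ x), ⟨_, rfl⟩, ?_⟩
    rw [LinearEquiv.coe_coe, actEquiv_apply, h1, act_act_inv]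

/-- the restriction to the range of `g - 1` of an isometry that commutes with `g` -/
noncomputable def restr (g : Cfsg.isometryGroup F (⇑Q))
    (h : Subgroup.centralizer ({g} : Set (Cfsg.isometryGroup F (⇑Q)))) :
    LinearMap.range (nMap g) ≃ₗ[F] LinearMap.range (nMap g) :=
  (actEquiv (h : Cfsg.isometryGroup F (⇑Q))).ofSubmodules _ _
    (map_range_of_commute Q g h (Subgroup.mem_centralizer_singleton_iff.1 h.2))

theorem restr_apply (g : Cfsg.isometryGroup F (⇑Q))
    (h : Subgroup.centralizer ({g} : Set (Cfsg.isometryGroup F (⇑Q))))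
    (x : LinearMap.range (nMap g)) :
    (restr Q g h x : ι → F) = act (h : Cfsg.isometryGroup F (⇑Q)) x := by
  rw [restr, LinearEquiv.ofSubmodules_apply, actEquiv_apply]

theorem fixing_le_centralizer [CharP F 2] (hQ : (polarBilin Q).Nondegenerate)
    (g : Cfsg.isometryGroup F (⇑Q)) (hg : g * g = 1) :
    fixing (⇑Q) (LinearMap.range (nMap g)) ≤ Subgroup.centralizer {g} := by
  intro h hh
  rw [Subgroup.mem_centralizer_singleton_iff, commute_iff]
  intro x
  rw [hh _ ⟨x, rfl⟩]
  apply eq_of_polar Q hQ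
  intro y
  have h1 : ∀ a b, polar Q (nMap g a) b = - polar Q a (nMap g b) :=
    Cfsg.Agent.H177.InvolOrth.polar_N Q (nMap g) (nMap_nMap Q g hg) (Q_add_nMap Q g)
  rw [h1, h1]
  conv_lhs => rw [← polar_act h x (nMap g y), hh (nMap g y) ⟨y, rfl⟩]

/-- **The centraliser of an involution.** -/
theorem card_centralizer [Finite F] [CharP F 2] (hQ : (polarBilin Q).Nondegenerate)
    (g : Cfsg.isometryGroup F (⇑Q)) (hg : g * g = 1)
    (γ : LinearMap.BilinForm F (LinearMap.range (nMap g))) (hγ : γ.Nondegenerate)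
    (h1 : ∀ (x : ι → F) (m : LinearMap.range (nMap g)),
        γ ⟨nMap g x, LinearMap.mem_range_self (nMap g) x⟩ m = QuadraticMap.polarBilin Q x m)
    (h2 : ∀ m, γ m m = Q m) :
    Nat.card (Subgroup.centralizer ({g} : Set (Cfsg.isometryGroup F (⇑Q))))
      = Nat.card {φ : LinearMap.range (nMap g) ≃ₗ[F] LinearMap.range (nMap g) //
          ∀ x y, γ (φ x) (φ y) = γ x y}
        * Nat.card (fixing (⇑Q) (LinearMap.range (nMap g))) := by
  have hle := fixing_le_centralizer Q hQ g hg
  rw [← Nat.card_congr (Subgroup.subgroupOfEquivOfLe hle).toEquiv]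
  refine card_eq_of_fibres _ (fun h => ⟨restr Q g h, ?_⟩) ?_ ?_
  · rintro ⟨_, x, rfl⟩ m
    have h3 : restr Q g h ⟨nMap g x, ⟨x, rfl⟩⟩
        = ⟨nMap g (act (h : Cfsg.isometryGroup F (⇑Q)) x), ⟨_, rfl⟩⟩ := by
      apply Subtype.ext
      rw [restr_apply]
      exact (commute_iff Q g h).1 (Subgroup.mem_centralizer_singleton_iff.1 h.2) x
    rw [h3, h1, h1, restr_apply]
    exact polar_act _ _ _
  · rintro ⟨φ, hφ⟩
    obtain ⟨e, he, heφ⟩ := Cfsg.Agent.ClassicalGeometry.WittQuad.extend Q hQ _ _ φ (fun m => by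
      rw [← h2, hφ, h2])
    obtain ⟨h, hh⟩ := exists_iso (⇑Q) e he
    have hc : h ∈ Subgroup.centralizer ({g} : Set (Cfsg.isometryGroup F (⇑Q))) := by
      rw [Subgroup.mem_centralizer_singleton_iff, commute_iff]
      intro x
      have hpol := Cfsg.Agent.ClassicalGeometry.WittQuad.polar_map Q e (map_add e) he
      have key : φ ⟨nMap g x, LinearMap.mem_range_self _ x⟩
          = ⟨nMap g (e x), LinearMap.mem_range_self _ (e x)⟩ := by
        rw [← sub_eq_zero]
        apply hγ.1
        intro m'
        obtain ⟨m, rfl⟩ := φ.surjective m'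
        rw [map_sub, LinearMap.sub_apply, hφ, h1, h1, ← heφ, hpol, sub_self]
      rw [hh, heφ ⟨nMap g x, LinearMap.mem_range_self _ x⟩, key, hh]
    refine ⟨⟨h, hc⟩, ?_⟩
    apply Subtype.ext
    apply LinearEquiv.ext
    intro x
    apply Subtype.ext
    rw [restr_apply]
    exact (hh x).trans (heφ x)
  · intro a b
    rw [Subtype.mk.injEq, Subgroup.mem_subgroupOf, mem_fixing]
    constructor
    · intro hab x hx
      have h3 := congrArg (fun φ => ((φ ⟨x, hx⟩ : LinearMap.range (nMap g)) : ι → F)) hab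
      simp only [restr_apply] at h3
      rw [Subgroup.coe_mul, act_mul, ← h3, Subgroup.coe_inv, act_inv_act]
    · intro hab
      apply LinearEquiv.ext
      intro x
      apply Subtype.ext
      rw [restr_apply, restr_apply]
      have h3 := congrArg (act (a : Cfsg.isometryGroup F (⇑Q))) (hab x x.2)
      rw [← act_mul, ← Subgroup.coe_mul, mul_inv_cancel_left] at h3
      exact h3.symm

end Cfsg.Agent.H196
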