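import Mathlib
import Cfsg.Agent.H196.InvolCent
import Cfsg.Agent.H196.PlusCount
import Cfsg.Agent.H177.OmegaSign
import Cfsg.Agent.H181.Families

/-!
# Centralisers in `Ω` of involutions of orthogonal groups in characteristic two
-/

set_option autoImplicit false
set_option linter.unusedSectionVars false

namespace Cfsg.Agent.H196

open QuadraticMap Matrix Module
open Cfsg.Agent.ClassicalGeometry.Reflection
open Cfsg.Agent.ClassicalGeometry.OrthCharTwo
open Cfsg.Agent.ClassicalGeometry.OrthDickson
open Cfsg.Agent.H177.InvolGroup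
open Cfsg.Agent.H177.InvolForms
open Cfsg.Agent.LieClassical.OrthForms

section Abstract

variable {G : Type*} [Group G]

theorem card_commuting_eq (K : Subgroup G) (x : G) :
    Nat.card {g : K // (g : G) * x = x * (g : G)}
      = Nat.card (K.subgroupOf (Subgroup.centralizer ({x} : Set G))) := by
  refine Nat.card_congr
    { toFun := fun g => ⟨⟨g.1, Subgroup.mem_centralizer_singleton_iff.2 g.2⟩, g.1.2⟩
      invFun := fun g => ⟨⟨g.1, g.2⟩, Subgroup.mem_centralizer_singleton_iff.1 g.1.2⟩
      left_inv := fun g => rfl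
      right_inv := fun g => rfl }

theorem card_commuting_full (K : Subgroup G) (x : G)
    (h : Subgroup.centralizer ({x} : Set G) ≤ K) :
    Nat.card {g : K // (g : G) * x = x * (g : G)}
      = Nat.card (Subgroup.centralizer ({x} : Set G)) := by
  rw [card_commuting_eq, Subgroup.subgroupOf_eq_top.2 h]
  exact Nat.card_congr Subgroup.topEquiv.toEquiv

theorem card_commuting_half (K : Subgroup G) [K.Normal] (hK : K.index = 2) (x : G) (r : G)
    (hr : r ∈ Subgroup.centralizer ({x} : Set G)) (hrK : r ∉ K) :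
    2 * Nat.card {g : K // (g : G) * x = x * (g : G)}
      = Nat.card (Subgroup.centralizer ({x} : Set G)) := by
  rw [card_commuting_eq, ← Subgroup.index_mul_card (K.subgroupOf (Subgroup.centralizer {x}))]
  congr 1
  have h1 : K.relIndex (Subgroup.centralizer {x}) ∣ 2 := by
    rw [← hK]
    exact Subgroup.relIndex_dvd_index_of_normal K _
  rcases (Nat.dvd_prime Nat.prime_two).1 h1 with h2 | h2
  · exact absurd (Subgroup.relIndex_eq_one.1 h2 hr) hrK
  · exact h2.symm

end Abstract

variable {ι : Type} [Fintype ι] [DecidableEq ι] {F : Type*} [Field F]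

/-- a reflection in a vector orthogonal to the residual space commutes -/
theorem refl_mem_centralizer [CharP F 2] (Q : QuadraticForm F (ι → F))
    (hQ : (polarBilin Q).Nondegenerate) (x : Cfsg.isometryGroup F (⇑Q)) (hx : x * x = 1)
    (v : ι → F) (hv : Q v ≠ 0) (hvx : ∀ y ∈ LinearMap.range (nMap x), polar Q v y = 0) :
    reflIso Q v hv ∈ Subgroup.centralizer ({x} : Set (Cfsg.isometryGroup F (⇑Q))) :=
  fixing_le_centralizer Q hQ x hx fun y hy => act_refl_of_polar Q v hv y (hvx y hy)

theorem card_omega_half [Finite F] [CharP F 2] (Q : QuadraticForm F (ι → F))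
    (hQ : (polarBilin Q).Nondegenerate)
    (h : (∃ θ : F, θ ≠ 0 ∧ θ ≠ 1) ∨ Fintype.card ι ≠ 4) (x : Cfsg.isometryGroup F (⇑Q))
    (hx : x * x = 1) (v : ι → F) (hv : Q v ≠ 0)
    (hvx : ∀ y ∈ LinearMap.range (nMap x), polar Q v y = 0) :
    2 * Nat.card {g : Cfsg.Omega F (⇑Q) //
        (g : Cfsg.isometryGroup F (⇑Q)) * x = x * (g : Cfsg.isometryGroup F (⇑Q))}
      = Nat.card (Subgroup.centralizer ({x} : Set (Cfsg.isometryGroup F (⇑Q)))) := by
  have : Nonempty ι := by
    by_contra hne
    rw [not_nonempty_iff] at hne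
    have : v = 0 := Subsingleton.elim _ _
    rw [this] at hv
    exact hv (QuadraticMap.map_zero Q)
  exact card_commuting_half _ (index_commutator_two Q CharTwo.two_eq_zero hQ h) x _
    (refl_mem_centralizer Q hQ x hx v hv hvx) (refl_notMem_commutator Q hQ h v hv)

/-- If the residual space is a maximal totally singular subspace the centraliser lies in `Ω`. -/
theorem centralizer_le_omega [Finite F] [CharP F 2] (Q : QuadraticForm F (ι → F))
    (hQ : (polarBilin Q).Nondegenerate)
    (h : (∃ θ : F, θ ≠ 0 ∧ θ ≠ 1) ∨ Fintype.card ι ≠ 4) (x : Cfsg.isometryGroup F (⇑Q))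
    (m : ℕ) (hm : Fintype.card ι = 2 * m) (hd : finrank F (LinearMap.range (nMap x)) = m)
    (hs : ∀ y ∈ LinearMap.range (nMap x), Q y = 0) :
    Subgroup.centralizer ({x} : Set (Cfsg.isometryGroup F (⇑Q))) ≤ Cfsg.Omega F (⇑Q) := by
  intro g hg
  rw [Subgroup.mem_centralizer_singleton_iff] at hg
  have h1 : Cfsg.Agent.H181.Families.img g (LinearMap.range (nMap x)) = LinearMap.range (nMap x) :=
    map_range_of_commute Q x g hg
  have h2 := Cfsg.Agent.H181.Families.even_iff_dsign hQ hm h g (U := LinearMap.range (nMap x)) ⟨hd, hs⟩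
  rw [h1, inf_idem, hd, Nat.sub_self] at h2
  exact (Cfsg.Agent.H177.OmegaSign.mem_commutator_iff_good Q hQ h g).2 (h2.1 (by decide))

end Cfsg.Agent.H196
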