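import Mathlib
import Cfsg.Agent.H196.OmegaCent

/-!
# Orders of centralisers in `Ω⁺_2m(q)`, `q` even, of involutions, given the order of the isometry
group of the form on the residual space
-/

set_option autoImplicit false
set_option linter.unusedSectionVars false

namespace Cfsg.Agent.H196

open QuadraticMap Matrix Module
open Cfsg.Agent.ClassicalGeometry.Reflection
open Cfsg.Agent.ClassicalGeometry.OrthCharTwo
open Cfsg.Agent.ClassicalGeometry.OrthDickson
open Cfsg.Agent.H177.InvolGroup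
open Cfsg.Agent.H177.InvolForms
open Cfsg.Agent.LieClassical.OrthForms

variable {F : Type*} [Field F]

/-- the number of isometries of a bilinear form -/
noncomputable def isoCount {M : Type*} [AddCommGroup M] [Module F M] (γ : LinearMap.BilinForm F M) :
    ℕ :=
  Nat.card {φ : M ≃ₗ[F] M // ∀ x y, γ (φ x) (φ y) = γ x y}

theorem rank_eq {m : ℕ} {Q : (Fin m ⊕ Fin m → F) → F} (x : Cfsg.isometryGroup F Q) :
    (((x : Matrix.GeneralLinearGroup (Fin m ⊕ Fin m) F) :
      Matrix (Fin m ⊕ Fin m) (Fin m ⊕ Fin m) F) - 1).rank = finrank F (LinearMap.range (nMap x)) := by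
  have h : (((x : Matrix.GeneralLinearGroup (Fin m ⊕ Fin m) F) :
      Matrix (Fin m ⊕ Fin m) (Fin m ⊕ Fin m) F) - 1).mulVecLin = nMap x := by
    apply LinearMap.ext
    intro v
    rw [Matrix.mulVecLin_apply, Matrix.sub_mulVec, Matrix.one_mulVec]
    rfl
  rw [Matrix.rank, h]

theorem good_of [Fintype F] {m : ℕ} (h : Fintype.card F ≠ 2 ∨ m ≠ 2) :
    (∃ θ : F, θ ≠ 0 ∧ θ ≠ 1) ∨ Fintype.card (Fin m ⊕ Fin m) ≠ 4 := by
  rcases h with h | h
  · exact Or.inl (exists_ne_zero_ne_one h)
  · right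
    rw [Fintype.card_sum, Fintype.card_fin]
    omega

theorem nMap_mem_polar [CharP F 2] {m : ℕ} (x : Cfsg.isometryGroup F (⇑(plusForm m F)))
    (hx : x * x = 1) : ∀ a ∈ LinearMap.range (nMap x), ∀ b ∈ LinearMap.range (nMap x),
      polar (plusForm m F) a b = 0 := by
  rintro _ ⟨a, rfl⟩ _ ⟨b, rfl⟩
  exact Cfsg.Agent.H177.InvolOrth.polar_N_N (plusForm m F) (nMap x)
    (nMap_nMap _ x hx) (Q_add_nMap _ x) a b

/-- the form on the residual space -/
theorem exists_gamma [CharP F 2] {m : ℕ} (x : Cfsg.isometryGroup F (⇑(plusForm m F)))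
    (hx : x * x = 1) : ∃ γ : LinearMap.BilinForm F (LinearMap.range (nMap x)),
      γ.Nondegenerate ∧ (∀ (v : Fin m ⊕ Fin m → F) (y : LinearMap.range (nMap x)),
        γ ⟨nMap x v, LinearMap.mem_range_self (nMap x) v⟩ y = polarBilin (plusForm m F) v y) ∧
      γ.IsSymm ∧ ∀ y : LinearMap.range (nMap x), γ y y = plusForm m F y :=
  Cfsg.Agent.H177.InvolOrth.exists_gamma (plusForm m F) (nMap x) (nMap_nMap _ x hx)
    (Q_add_nMap _ x) (plus_nondegenerate m F)

/-- **Totally singular residual space.** -/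
theorem card_omega_alt [Fintype F] [CharP F 2] {m s n : ℕ} (hm : m = s + n)
    (h : Fintype.card F ≠ 2 ∨ m ≠ 2) (x : Cfsg.isometryGroup F (⇑(plusForm m F))) (hx : x * x = 1)
    (hs : finrank F (LinearMap.range (nMap x)) = s)
    (hsing : ∀ y ∈ LinearMap.range (nMap x), plusForm m F y = 0) (a : ℕ)
    (ha : ∀ γ : LinearMap.BilinForm F (LinearMap.range (nMap x)), γ.Nondegenerate → γ.IsAlt →
      isoCount γ = a) :
    Nat.card {g : Cfsg.Omega F (⇑(plusForm m F)) //
        (g : Cfsg.isometryGroup F (⇑(plusForm m F))) * x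
          = x * (g : Cfsg.isometryGroup F (⇑(plusForm m F)))}
      = a * (Nat.card F ^ (s * (s - 1) / 2 + 2 * s * n) * (if n = 0 then 1 else
          Nat.card F ^ (n * (n - 1)) * (Nat.card F ^ n - 1) *
            ∏ i ∈ Finset.range (n - 1), (Nat.card F ^ (2 * (i + 1)) - 1))) := by
  have hQ := plus_nondegenerate m F
  obtain ⟨γ, hγ, h1, hS, h2⟩ := exists_gamma x hx
  have hA : γ.IsAlt := fun y => by rw [h2]; exact hsing y y.2
  have h3 := card_centralizer (plusForm m F) hQ x hx γ hγ h1 h2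
  have h4 : Nat.card {φ : LinearMap.range (nMap x) ≃ₗ[F] LinearMap.range (nMap x) //
          ∀ x y, γ (φ x) (φ y) = γ x y} = a := ha γ hγ hA
  rw [h4, card_fixing_singular s m n hm _ hsing hs] at h3
  by_cases hn : n = 0
  · subst hn
    rw [card_commuting_full _ x (centralizer_le_omega _ hQ (good_of h) x m
      (by rw [Fintype.card_sum, Fintype.card_fin]; omega) (by rw [hs]; omega) hsing), h3,
      Cfsg.Agent.S0287.card_zero, if_pos rfl]
  · rw [if_neg hn]
    have hF : Fintype.card F = Nat.card F := Nat.card_eq_fintype_card.symm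
    -- a non-singular vector orthogonal to the residual space
    obtain ⟨v, hv, hvx⟩ : ∃ v, plusForm m F v ≠ 0 ∧
        ∀ y ∈ LinearMap.range (nMap x), polar (plusForm m F) v y = 0 := by
      have h5 := card_ext_singular s m n hm (by omega) _ hsing hs (1 : F) one_ne_zero
      have hq : 1 < Nat.card F := Finite.one_lt_card
      have h6 : 0 < Nat.card F ^ n - 1 := Nat.sub_pos_of_lt (Nat.one_lt_pow hn hq)
      have h7 : 0 < Nat.card F ^ s * (Nat.card F ^ (n - 1) * (Nat.card F ^ n - 1)) := by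
        positivity
      rw [← h5, Nat.card_pos_iff] at h7
      obtain ⟨⟨v, hv1, hv2, hv3⟩⟩ := h7.1
      exact ⟨v, by rw [hv2]; exact one_ne_zero, fun y hy => by rw [polar_comm]; exact hv3 y hy⟩
    have h5 := card_omega_half (plusForm m F) hQ (good_of h) x hx v hv hvx
    rw [h3, Cfsg.Agent.S0287.result hF n (by omega)] at h5
    apply Nat.eq_of_mul_eq_mul_left (Nat.succ_pos 1)
    rw [h5]
    ring

/-- **Residual space not totally singular.** -/
theorem card_omega_nonalt [Fintype F] [CharP F 2] {m k n : ℕ} (hm : m = k + (n + 1))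
    (h : Fintype.card F ≠ 2 ∨ m ≠ 2) (x : Cfsg.isometryGroup F (⇑(plusForm m F))) (hx : x * x = 1)
    (hs : finrank F (LinearMap.range (nMap x)) = k + 1) (u : Fin m ⊕ Fin m → F)
    (hu : u ∈ LinearMap.range (nMap x)) (hu0 : plusForm m F u ≠ 0) (a : ℕ)
    (ha : ∀ γ : LinearMap.BilinForm F (LinearMap.range (nMap x)), γ.Nondegenerate → γ.IsSymm →
      (∃ y, γ y y ≠ 0) → isoCount γ = a) :
    Nat.card F ^ k * Nat.card {g : Cfsg.Omega F (⇑(plusForm m F)) //
        (g : Cfsg.isometryGroup F (⇑(plusForm m F))) * x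
          = x * (g : Cfsg.isometryGroup F (⇑(plusForm m F)))}
      = a * (Nat.card F ^ (k * (k - 1) / 2 + 2 * k * (n + 1)) *
        (Nat.card F ^ (n ^ 2) * ∏ i ∈ Finset.range n, (Nat.card F ^ (2 * (i + 1)) - 1))) := by
  have hQ := plus_nondegenerate m F
  have hpol := nMap_mem_polar x hx
  obtain ⟨γ, hγ, h1, hS, h2⟩ := exists_gamma x hx
  have h3 := card_centralizer (plusForm m F) hQ x hx γ hγ h1 h2
  have h4 : Nat.card {φ : LinearMap.range (nMap x) ≃ₗ[F] LinearMap.range (nMap x) //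
          ∀ x y, γ (φ x) (φ y) = γ x y} = a := ha γ hγ hS ⟨⟨u, hu⟩, by rw [h2]; exact hu0⟩
  have h5 := card_fixing_nonsingular k m n hm _ hpol u hu hu0 hs
  have h6 := card_omega_half (plusForm m F) hQ (good_of h) x hx u hu0 (fun y hy => hpol u hu y hy)
  rw [h3, h4] at h6
  apply Nat.eq_of_mul_eq_mul_left (Nat.succ_pos 1)
  calc _ = Nat.card F ^ k * (2 * Nat.card {g : Cfsg.Omega F (⇑(plusForm m F)) //
        (g : Cfsg.isometryGroup F (⇑(plusForm m F))) * x
          = x * (g : Cfsg.isometryGroup F (⇑(plusForm m F)))}) := by ring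
    _ = a * (Nat.card F ^ k * Nat.card (fixing (⇑(plusForm m F)) (LinearMap.range (nMap x)))) := by
        rw [h6]; ring
    _ = _ := by rw [h5]; ring

end Cfsg.Agent.H196
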