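import Mathlib
import Cfsg.Agent.H196.Assemble
import Cfsg.Agent.H196.SymForm2

/-!
# Orders of centralisers in `Ω⁺_2m(q)`, `q` even, of involutions
-/

set_option autoImplicit false
set_option linter.unusedSectionVars false

namespace Cfsg.Agent.H196.Final

open QuadraticMap Matrix Module
open Cfsg.Agent.ClassicalGeometry.Reflection
open Cfsg.Agent.ClassicalGeometry.OrthCharTwo
open Cfsg.Agent.ClassicalGeometry.OrthDickson
open Cfsg.Agent.H177.InvolGroup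
open Cfsg.Agent.H177.InvolForms
open Cfsg.Agent.LieClassical.OrthForms
open Cfsg.Agent.H196.SymForm

variable {F : Type*} [Field F]

theorem cSp_fin (q r : ℕ) :
    (q : ℕ) ^ (r ^ 2) * ∏ i : Fin r, (q ^ (2 * ((i : ℕ) + 1)) - 1) = cSp q r := by
  rw [cSp, Finset.prod_range]

theorem mulVec_eq {m : ℕ} {Q : (Fin m ⊕ Fin m → F) → F} (x : Cfsg.isometryGroup F Q)
    (v : Fin m ⊕ Fin m → F) :
    (((x : Matrix.GeneralLinearGroup (Fin m ⊕ Fin m) F) :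
      Matrix (Fin m ⊕ Fin m) (Fin m ⊕ Fin m) F) - 1).mulVec v = nMap x v := by
  rw [Matrix.sub_mulVec, Matrix.one_mulVec]
  rfl

theorem two_mul_rank_le [CharP F 2] {m : ℕ} (x : Cfsg.isometryGroup F (⇑(plusForm m F)))
    (hx : x * x = 1) : finrank F (LinearMap.range (nMap x)) ≤ m := by
  have h := Cfsg.Agent.H177.InvolCount.two_mul_finrank_res_le (plusForm m F) x hx
  rw [← range_nMap, Fintype.card_sum, Fintype.card_fin] at h
  omega

theorem range_add (t n : ℕ) :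
    2 * (2 * t + n) * (2 * t) - (3 * (2 * t) ^ 2 + 2 * t) / 2
      = 2 * t * (2 * t - 1) / 2 + 2 * (2 * t) * n := by
  have h1 : (3 * (2 * t) ^ 2 + 2 * t) / 2 = 6 * t ^ 2 + t := by
    have : 3 * (2 * t) ^ 2 + 2 * t = 2 * (6 * t ^ 2 + t) := by ring
    omega
  have h2 : 2 * t * (2 * t - 1) / 2 = t * (2 * t - 1) := by
    rw [mul_assoc, Nat.mul_div_cancel_left _ (by norm_num)]
  rw [h1, h2]
  rcases t with _ | t
  · simp
  · have h3 : 2 * (t + 1) - 1 = 2 * t + 1 := by omega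
    rw [h3]
    have h4 : 2 * (2 * (t + 1) + n) * (2 * (t + 1))
        = (6 * (t + 1) ^ 2 + (t + 1)) + ((t + 1) * (2 * t + 1) + 2 * (2 * (t + 1)) * n) := by ring
    omega

/-- totally singular residual space -/
theorem alt [Fintype F] [CharP F 2] {q : ℕ} (hF : Fintype.card F = q) {m s : ℕ}
    (h : Fintype.card F ≠ 2 ∨ m ≠ 2) (x : ↥(Cfsg.isometryGroup F (⇑(plusForm m F))))
    (hx : x ^ 2 = 1)
    (hs : (((x : Matrix.GeneralLinearGroup (Fin m ⊕ Fin m) F) :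
      Matrix (Fin m ⊕ Fin m) (Fin m ⊕ Fin m) F) - 1).rank = s) (heven : Even s)
    (halt : ∀ v : Fin m ⊕ Fin m → F, (⇑(plusForm m F))
      ((((x : Matrix.GeneralLinearGroup (Fin m ⊕ Fin m) F) :
        Matrix (Fin m ⊕ Fin m) (Fin m ⊕ Fin m) F) - 1).mulVec v) = 0) :
    Nat.card {g : ↥(Cfsg.Omega F (⇑(plusForm m F))) //
      (g : ↥(Cfsg.isometryGroup F (⇑(plusForm m F)))) * x
        = x * (g : ↥(Cfsg.isometryGroup F (⇑(plusForm m F))))}
    = q ^ (2 * m * s - (3 * s ^ 2 + s) / 2) *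
      ((q : ℕ) ^ ((s / 2) ^ 2) * ∏ i : Fin (s / 2), (q ^ (2 * ((i : ℕ) + 1)) - 1)) *
      (if s = m then 1 else q ^ ((m - s) * (m - s - 1)) * (q ^ (m - s) - 1) *
        ∏ i : Fin (m - s - 1), (q ^ (2 * ((i : ℕ) + 1)) - 1)) := by
  rw [pow_two] at hx
  rw [rank_eq] at hs
  have hle := two_mul_rank_le x hx
  obtain ⟨n, hm⟩ : ∃ n, m = s + n := ⟨m - s, by omega⟩
  obtain ⟨t, ht⟩ := heven
  have ht' : s = 2 * t := by omega
  have hsing : ∀ y ∈ LinearMap.range (nMap x), plusForm m F y = 0 := by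
    rintro _ ⟨v, rfl⟩
    rw [← mulVec_eq]
    exact halt v
  have h1 := card_omega_alt hm h x hx hs hsing (cSp (Fintype.card F) t)
    (fun γ hγ hA => card_iso_alt γ hA hγ (by rw [hs, ht']))
  have hqF : Nat.card F = q := by rw [Nat.card_eq_fintype_card, hF]
  rw [hqF, hF] at h1
  rw [h1, cSp_fin, ← Finset.prod_range (fun i => q ^ (2 * (i + 1)) - 1)]
  subst ht' hm
  have h2 : 2 * t / 2 = t := by omega
  have h3 : 2 * t + n - 2 * t = n := by omega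
  rw [h2, h3, range_add]
  have h4 : (2 * t = 2 * t + n) ↔ n = 0 := by omega
  simp only [h4]
  ring

theorem exp_nonalt (k n : ℕ) :
    k * (k - 1) / 2 + 2 * k * (n + 1) = 2 * (k + 1 + n) * k - (3 * (k + 1) ^ 2 - 5 * (k + 1)) / 2 - 1 := by
  rcases k with _ | k
  · simp
  have h0 : (k + 1) * (k + 1 - 1) = k * (k + 1) := by
    rw [Nat.add_sub_cancel, mul_comm]
  have h1 : 3 * (k + 1 + 1) ^ 2 - 5 * (k + 1 + 1) = 2 * (k ^ 2 + 3 * k + 1) + k * (k + 1) := by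
    have : 3 * (k + 1 + 1) ^ 2 = 5 * (k + 1 + 1) + (2 * (k ^ 2 + 3 * k + 1) + k * (k + 1)) := by ring
    omega
  obtain ⟨j, hj⟩ : ∃ j, k * (k + 1) = 2 * j := by
    obtain ⟨j, hj⟩ := Nat.even_mul_succ_self k
    exact ⟨j, by omega⟩
  rw [h0, h1, hj]
  have h2 : 2 * j / 2 = j := by omega
  have h3 : (2 * (k ^ 2 + 3 * k + 1) + 2 * j) / 2 = k ^ 2 + 3 * k + 1 + j := by omega
  rw [h2, h3]
  have h4 : 2 * (k + 1 + 1 + n) * (k + 1)
      = (k ^ 2 + 3 * k + 1 + j) + 1 + (j + 2 * (k + 1) * (n + 1)) := by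
    have : 2 * (k + 1 + 1 + n) * (k + 1) = (k ^ 2 + 3 * k + 1) + 1 + 2 * (k + 1) * (n + 1) + k * (k + 1) := by
      ring
    omega
  omega

/-- residual space not totally singular, in general -/
theorem nonalt [Fintype F] [CharP F 2] {q : ℕ} (hF : Fintype.card F = q) {m k : ℕ}
    (h : Fintype.card F ≠ 2 ∨ m ≠ 2) (x : ↥(Cfsg.isometryGroup F (⇑(plusForm m F))))
    (hx : x * x = 1) (hs : finrank F (LinearMap.range (nMap x)) = k + 1)
    (hna : ∃ y ∈ LinearMap.range (nMap x), plusForm m F y ≠ 0) :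
    q ^ k * Nat.card {g : ↥(Cfsg.Omega F (⇑(plusForm m F))) //
      (g : ↥(Cfsg.isometryGroup F (⇑(plusForm m F)))) * x
        = x * (g : ↥(Cfsg.isometryGroup F (⇑(plusForm m F))))}
    = cON q (k + 1) * (q ^ (2 * m * k - (3 * (k + 1) ^ 2 - 5 * (k + 1)) / 2 - 1)
      * cSp q (m - (k + 1))) := by
  have hle := two_mul_rank_le x hx
  obtain ⟨n, hm⟩ : ∃ n, m = k + (n + 1) := ⟨m - (k + 1), by omega⟩
  obtain ⟨u, hu, hu0⟩ := hna
  have h1 := card_omega_nonalt hm h x hx hs u hu hu0 (cON (Fintype.card F) (k + 1))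
    (fun γ hγ hS hna => card_iso_nonalt γ hS hγ hna hs)
  have hqF : Nat.card F = q := by rw [Nat.card_eq_fintype_card, hF]
  rw [hqF, hF] at h1
  rw [h1]
  subst hm
  have h2 : k + (n + 1) - (k + 1) = n := by omega
  have h3 : k + (n + 1) = k + 1 + n := by ring
  rw [h2, exp_nonalt, ← h3]
  rfl

theorem exists_of_ne [CharP F 2] {m : ℕ} (x : ↥(Cfsg.isometryGroup F (⇑(plusForm m F))))
    (hna : ∃ v : Fin m ⊕ Fin m → F, (⇑(plusForm m F))
      ((((x : Matrix.GeneralLinearGroup (Fin m ⊕ Fin m) F) :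
        Matrix (Fin m ⊕ Fin m) (Fin m ⊕ Fin m) F) - 1).mulVec v) ≠ 0) :
    ∃ y ∈ LinearMap.range (nMap x), plusForm m F y ≠ 0 := by
  obtain ⟨v, hv⟩ := hna
  rw [mulVec_eq] at hv
  exact ⟨_, ⟨v, rfl⟩, hv⟩

/-- even rank, residual space not totally singular -/
theorem nonalt_even [Fintype F] [CharP F 2] {q : ℕ} (hF : Fintype.card F = q) {m s : ℕ}
    (h : Fintype.card F ≠ 2 ∨ m ≠ 2) (x : ↥(Cfsg.isometryGroup F (⇑(plusForm m F))))
    (hx : x ^ 2 = 1)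
    (hs : (((x : Matrix.GeneralLinearGroup (Fin m ⊕ Fin m) F) :
      Matrix (Fin m ⊕ Fin m) (Fin m ⊕ Fin m) F) - 1).rank = s) (heven : Even s)
    (hna : ∃ v : Fin m ⊕ Fin m → F, (⇑(plusForm m F))
      ((((x : Matrix.GeneralLinearGroup (Fin m ⊕ Fin m) F) :
        Matrix (Fin m ⊕ Fin m) (Fin m ⊕ Fin m) F) - 1).mulVec v) ≠ 0) :
    Nat.card {g : ↥(Cfsg.Omega F (⇑(plusForm m F))) //
      (g : ↥(Cfsg.isometryGroup F (⇑(plusForm m F)))) * x
        = x * (g : ↥(Cfsg.isometryGroup F (⇑(plusForm m F))))}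
    = q ^ (2 * m * (s - 1) - (3 * s ^ 2 - 5 * s) / 2 - 1) *
      ((q : ℕ) ^ (((s - 2) / 2) ^ 2) * ∏ i : Fin ((s - 2) / 2), (q ^ (2 * ((i : ℕ) + 1)) - 1)) *
      ((q : ℕ) ^ ((m - s) ^ 2) * ∏ i : Fin (m - s), (q ^ (2 * ((i : ℕ) + 1)) - 1)) := by
  rw [pow_two] at hx
  rw [rank_eq] at hs
  obtain ⟨y, hy, hy0⟩ := exists_of_ne x hna
  have hpos : 0 < finrank F (LinearMap.range (nMap x)) := by
    rw [Module.finrank_pos_iff_exists_ne_zero]
    refine ⟨⟨y, hy⟩, fun h0 => hy0 ?_⟩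
    have : y = 0 := congrArg Subtype.val h0
    rw [this]
    exact QuadraticMap.map_zero _
  obtain ⟨t, ht⟩ := heven
  obtain ⟨t, rfl⟩ : ∃ j, t = j + 1 := ⟨t - 1, by omega⟩
  have hs' : s = (2 * t + 1) + 1 := by omega
  subst hs'
  have h1 := nonalt hF h x hx hs ⟨y, hy, hy0⟩
  have hq : 0 < q := by rw [← hF]; exact Fintype.card_pos
  rw [cSp_fin, cSp_fin]
  have h2 : (2 * t + 1 + 1 - 2) / 2 = t := by omega
  have h3 : 2 * t + 1 + 1 - 1 = 2 * t + 1 := by omega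
  rw [h2, h3]
  have h4 : 0 < q ^ (2 * t + 1) := by positivity
  apply Nat.eq_of_mul_eq_mul_left h4
  rw [h1, cON_even]
  ring

theorem exp_odd (t m : ℕ) (hm : 2 * t + 1 ≤ m) :
    2 * m * (2 * t) - (3 * (2 * t + 1) ^ 2 - 5 * (2 * t + 1)) / 2 - 1
      = 2 * t + (2 * m * (2 * t) - (3 * (2 * t + 1) ^ 2 - 3 * (2 * t + 1)) / 2) := by
  obtain ⟨n, rfl⟩ : ∃ n, m = 2 * t + 1 + n := ⟨m - (2 * t + 1), by omega⟩
  rcases t with _ | t
  · simp
  have h1 : 3 * (2 * (t + 1) + 1) ^ 2 - 5 * (2 * (t + 1) + 1) = 2 * (6 * t ^ 2 + 13 * t + 6) := by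
    have : 3 * (2 * (t + 1) + 1) ^ 2 = 5 * (2 * (t + 1) + 1) + 2 * (6 * t ^ 2 + 13 * t + 6) := by ring
    omega
  have h2 : 3 * (2 * (t + 1) + 1) ^ 2 - 3 * (2 * (t + 1) + 1) = 2 * (6 * t ^ 2 + 15 * t + 9) := by
    have : 3 * (2 * (t + 1) + 1) ^ 2 = 3 * (2 * (t + 1) + 1) + 2 * (6 * t ^ 2 + 15 * t + 9) := by ring
    omega
  rw [h1, h2, Nat.mul_div_cancel_left _ (by norm_num), Nat.mul_div_cancel_left _ (by norm_num)]
  have h3 : 2 * (2 * (t + 1) + 1 + n) * (2 * (t + 1))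
      = (6 * t ^ 2 + 15 * t + 9) + (2 * t ^ 2 + 5 * t + 3 + 4 * n * (t + 1)) := by ring
  omega

/-- odd rank -/
theorem nonalt_odd [Fintype F] [CharP F 2] {q : ℕ} (hF : Fintype.card F = q) {m s : ℕ}
    (h : Fintype.card F ≠ 2 ∨ m ≠ 2) (x : ↥(Cfsg.isometryGroup F (⇑(plusForm m F))))
    (hx : x ^ 2 = 1)
    (hs : (((x : Matrix.GeneralLinearGroup (Fin m ⊕ Fin m) F) :
      Matrix (Fin m ⊕ Fin m) (Fin m ⊕ Fin m) F) - 1).rank = s) (hodd : Odd s) :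
    Nat.card {g : ↥(Cfsg.Omega F (⇑(plusForm m F))) //
      (g : ↥(Cfsg.isometryGroup F (⇑(plusForm m F)))) * x
        = x * (g : ↥(Cfsg.isometryGroup F (⇑(plusForm m F))))}
    = q ^ (2 * m * (s - 1) - (3 * s ^ 2 - 3 * s) / 2) *
      ((q : ℕ) ^ (((s - 1) / 2) ^ 2) * ∏ i : Fin ((s - 1) / 2), (q ^ (2 * ((i : ℕ) + 1)) - 1)) *
      ((q : ℕ) ^ ((m - s) ^ 2) * ∏ i : Fin (m - s), (q ^ (2 * ((i : ℕ) + 1)) - 1)) := by
  rw [pow_two] at hx
  rw [rank_eq] at hs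
  have hle := two_mul_rank_le x hx
  obtain ⟨t, rfl⟩ := hodd
  have hna : ∃ y ∈ LinearMap.range (nMap x), plusForm m F y ≠ 0 := by
    by_contra hcon
    push Not at hcon
    have h1 := Cfsg.Agent.H177.InvolCount.even_of_alt (plusForm m F) (plus_nondegenerate m F) x hx
      (fun v hv => hcon v (by rw [range_nMap]; exact hv))
    rw [← range_nMap, hs] at h1
    exact (Nat.not_even_iff_odd.2 ⟨t, rfl⟩) h1
  have h1 := nonalt hF h x hx hs hna
  have hq : 0 < q := by rw [← hF]; exact Fintype.card_pos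
  rw [cSp_fin, cSp_fin]
  have h2 : (2 * t + 1 - 1) / 2 = t := by omega
  have h3 : 2 * t + 1 - 1 = 2 * t := by omega
  rw [h2, h3]
  have h4 : 0 < q ^ (2 * t) := by positivity
  apply Nat.eq_of_mul_eq_mul_left h4
  rw [h1, cON_odd, exp_odd t m (by omega), pow_add]
  ring

end Cfsg.Agent.H196.Final
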