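import Mathlib
import Cfsg.Agent.H196.Fixing

/-!
# Standard totally singular subspaces of the plus-type form and counts
-/

set_option autoImplicit false
set_option linter.unusedSectionVars false

namespace Cfsg.Agent.H196

open QuadraticMap Matrix Module
open Cfsg.Agent.ClassicalGeometry.Reflection
open Cfsg.Agent.ClassicalGeometry.OrthCharTwo
open Cfsg.Agent.H177.InvolGroup
open Cfsg.Agent.H177.InvolForms
open Cfsg.Agent.LieClassical.OrthForms

variable {F : Type*} [Field F]

/-- The span of the first `k` vectors `x_i`. -/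
def stdS (m k : ℕ) (F : Type*) [Field F] : Submodule F (Fin m ⊕ Fin m → F) where
  carrier := {v | (∀ i, v (Sum.inr i) = 0) ∧ ∀ i : Fin m, k ≤ i.1 → v (Sum.inl i) = 0}
  add_mem' {a b} ha hb := ⟨fun i => by rw [Pi.add_apply, ha.1, hb.1, add_zero],
    fun i hi => by rw [Pi.add_apply, ha.2 i hi, hb.2 i hi, add_zero]⟩
  zero_mem' := ⟨fun _ => rfl, fun _ _ => rfl⟩
  smul_mem' c a ha := ⟨fun i => by rw [Pi.smul_apply, ha.1, smul_zero],
    fun i hi => by rw [Pi.smul_apply, ha.2 i hi, smul_zero]⟩

theorem mem_stdS {m k : ℕ} {v : Fin m ⊕ Fin m → F} :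
    v ∈ stdS m k F ↔ (∀ i, v (Sum.inr i) = 0) ∧ ∀ i : Fin m, k ≤ i.1 → v (Sum.inl i) = 0 := Iff.rfl

theorem stdS_zero (m : ℕ) : stdS m 0 F = ⊥ := by
  rw [eq_bot_iff]
  intro v hv
  rw [Submodule.mem_bot]
  funext i
  rcases i with i | i
  · exact hv.2 i (Nat.zero_le _)
  · exact hv.1 i

theorem stdS_singular {m k : ℕ} {v : Fin m ⊕ Fin m → F} (hv : v ∈ stdS m k F) :
    plusForm m F v = 0 := by
  rw [coe_plusForm, quadFormPlus_apply]
  exact Finset.sum_eq_zero fun i _ => by rw [hv.1, mul_zero]

theorem stdS_succ {m k : ℕ} (hk : k < m) :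
    stdS m (k + 1) F = stdS m k F ⊔ Submodule.span F {px m F ⟨k, hk⟩} := by
  apply le_antisymm
  · intro v hv
    rw [Submodule.mem_sup]
    refine ⟨v - v (Sum.inl ⟨k, hk⟩) • px m F ⟨k, hk⟩, ⟨?_, ?_⟩, v (Sum.inl ⟨k, hk⟩) • px m F ⟨k, hk⟩,
      Submodule.smul_mem _ _ (Submodule.mem_span_singleton_self _), by abel⟩
    · intro i
      simp [px, hv.1 i]
    · intro i hi
      by_cases h : i = ⟨k, hk⟩
      · subst h
        simp [px]
      · have h1 : k + 1 ≤ i.1 := by
          rcases Nat.lt_or_ge k i.1 with h2 | h2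
          · exact h2
          · exact absurd (Fin.ext (le_antisymm h2 hi)) h
        simp [px, hv.2 i h1, Pi.single_apply, h]
  · rw [sup_le_iff]
    constructor
    · intro v hv
      exact ⟨hv.1, fun i hi => hv.2 i (by omega)⟩
    · rw [Submodule.span_singleton_le_iff_mem]
      refine ⟨fun i => by simp [px], fun i hi => ?_⟩
      have h : i ≠ ⟨k, hk⟩ := by
        rintro rfl
        simp at hi
      simp [px, Pi.single_apply, h]

theorem px_notMem {m k : ℕ} (hk : k < m) : px m F ⟨k, hk⟩ ∉ stdS m k F := by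
  intro h
  have := h.2 ⟨k, hk⟩ le_rfl
  simp [px] at this

theorem finrank_stdS {m k : ℕ} (hk : k ≤ m) : finrank F (stdS m k F) = k := by
  induction k with
  | zero => rw [stdS_zero, finrank_bot]
  | succ k ih =>
    have h1 := ih (by omega)
    have h2 : stdS m k F ⊓ Submodule.span F {px m F ⟨k, hk⟩} = ⊥ := by
      rw [eq_bot_iff]
      rintro v ⟨hv1, hv2⟩
      obtain ⟨c, rfl⟩ := Submodule.mem_span_singleton.1 hv2
      have h3 := hv1.2 ⟨k, hk⟩ le_rfl
      have h4 : c = 0 := by simpa [px] using h3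
      rw [h4, zero_smul]
      exact Submodule.zero_mem _
    have h3 := Submodule.finrank_sup_add_finrank_inf_eq (stdS m k F)
      (Submodule.span F {px m F ⟨k, hk⟩})
    have h4 : px m F ⟨k, hk⟩ ≠ 0 := by
      intro h
      exact px_notMem hk (by rw [h]; exact Submodule.zero_mem _)
    rw [h2, finrank_bot, finrank_span_singleton h4, ← stdS_succ hk, h1] at h3
    omega

theorem polar_stdS_iff {m k : ℕ} (w : Fin m ⊕ Fin m → F) :
    (∀ x ∈ stdS m k F, polar (plusForm m F) x w = 0) ↔
      ∀ i : Fin m, i.1 < k → w (Sum.inr i) = 0 := by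
  constructor
  · intro h i hi
    have h1 := h (px m F i) ⟨fun j => by simp [px], fun j hj => by
      have : j ≠ i := by rintro rfl; omega
      simp [px, Pi.single_apply, this]⟩
    rw [polar_plusForm] at h1
    simpa [px, Pi.single_apply] using h1
  · intro h x hx
    rw [polar_plusForm]
    apply Finset.sum_eq_zero
    intro i _
    rw [hx.1 i, mul_zero, add_zero]
    by_cases hi : i.1 < k
    · rw [h i hi, mul_zero]
    · rw [hx.2 i (by omega), zero_mul]

/-- Vectors orthogonal to `stdS (k + n) k`. -/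
def glue {k n : ℕ} (a : Fin k → F) (u : Fin n ⊕ Fin n → F) : Fin (k + n) ⊕ Fin (k + n) → F :=
  Sum.elim (Fin.append a fun i => u (Sum.inl i)) (Fin.append 0 fun i => u (Sum.inr i))

theorem glue_form {k n : ℕ} (a : Fin k → F) (u : Fin n ⊕ Fin n → F) :
    plusForm (k + n) F (glue a u) = Cfsg.quadFormPlus n F u := by
  rw [coe_plusForm, quadFormPlus_apply, quadFormPlus_apply, Fin.sum_univ_add]
  simp [glue]

theorem glue_mem {k n : ℕ} (a : Fin k → F) (u : Fin n ⊕ Fin n → F) :
    glue a u ∈ stdS (k + n) k F ↔ u = 0 := by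
  rw [mem_stdS]
  constructor
  · rintro ⟨h1, h2⟩
    funext i
    rcases i with i | i
    · have := h2 (Fin.natAdd k i) (by simp)
      simpa [glue] using this
    · have := h1 (Fin.natAdd k i)
      simpa [glue] using this
  · rintro rfl
    refine ⟨fun i => ?_, fun i hi => ?_⟩
    · refine Fin.addCases (fun i => ?_) (fun i => ?_) i <;> simp [glue]
    · revert hi
      refine Fin.addCases (fun i hi => ?_) (fun i hi => ?_) i
      · exfalso
        simp only [Fin.val_castAdd] at hi
        omega
      · simp [glue]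

/-- **The number of extensions.** -/
theorem card_ext [Finite F] (k n : ℕ) (c : F) :
    Nat.card {w : Fin (k + n) ⊕ Fin (k + n) → F // w ∉ stdS (k + n) k F ∧
        plusForm (k + n) F w = c ∧ ∀ x ∈ stdS (k + n) k F, polar (plusForm (k + n) F) x w = 0}
      = Nat.card F ^ k * Nat.card {u : Fin n ⊕ Fin n → F // u ≠ 0 ∧ Cfsg.quadFormPlus n F u = c} := by
  have h1 : Nat.card F ^ k = Nat.card (Fin k → F) := by
    rw [Nat.card_fun, Nat.card_fin]
  rw [h1, ← Nat.card_prod]
  symm
  refine Nat.card_eq_of_bijective (fun p => ⟨glue p.1 p.2.1, by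
    rw [glue_mem]; exact p.2.2.1, by rw [glue_form]; exact p.2.2.2, by
    rw [polar_stdS_iff]
    intro i
    refine Fin.addCases (fun i hi => ?_) (fun i hi => ?_) i
    · simp [glue]
    · simp only [Fin.val_natAdd] at hi
      omega⟩) ⟨?_, ?_⟩
  · rintro ⟨a, u, hu⟩ ⟨b, v, hv⟩ h
    have h2 := congrArg Subtype.val h
    have hab : a = b := by
      funext i
      have := congrFun h2 (Sum.inl (Fin.castAdd n i))
      simpa [glue] using this
    have huv : u = v := by
      funext i
      rcases i with i | i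
      · have := congrFun h2 (Sum.inl (Fin.natAdd k i))
        simpa [glue] using this
      · have := congrFun h2 (Sum.inr (Fin.natAdd k i))
        simpa [glue] using this
    subst hab huv
    rfl
  · rintro ⟨w, hw1, hw2, hw3⟩
    rw [polar_stdS_iff] at hw3
    set u : Fin n ⊕ Fin n → F := Sum.elim (fun i => w (Sum.inl (Fin.natAdd k i)))
      (fun i => w (Sum.inr (Fin.natAdd k i))) with hu
    set a : Fin k → F := fun i => w (Sum.inl (Fin.castAdd n i)) with ha
    have hg : glue a u = w := by
      funext i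
      rcases i with i | i
      · refine Fin.addCases (fun i => ?_) (fun i => ?_) i <;> simp [glue, hu, ha]
      · refine Fin.addCases (fun i => ?_) (fun i => ?_) i
        · simp only [glue, Sum.elim_inr, Fin.append_left, Pi.zero_apply]
          exact (hw3 (Fin.castAdd n i) i.2).symm
        · simp [glue, hu]
    refine ⟨⟨a, u, ?_, ?_⟩, Subtype.ext hg⟩
    · intro h0
      exact hw1 (by rw [← hg, glue_mem]; exact h0)
    · rw [← glue_form a u, hg]
      exact hw2

end Cfsg.Agent.H196
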